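import Cfsg.Agent.Blocks.DefectDegree

/-!
# Support of a block idempotent and the same-block test on classes of full block defect

* `memLocalIdeal_blockCoeff_of_lt`: `a_B g` lies in the local ideal when the `p`-part of `|g^G|` is
  smaller than that of every degree in `B`;
* `congr_centralChar_zero_of_lt`: `ω_χ` vanishes modulo `M` on classes of `p`-part larger than some
  degree in the block.
-/

set_option autoImplicit false

namespace CfsgLib.Blocks.Orth

open Cfsg CfsgLib CfsgLib.Blocks
open scoped ComplexConjugate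

universe u

variable {G : Type u} [Group G] [Finite G] {p : ℕ} {M : Ideal AlgInt}
  {B : Set (IrrCharacter G)}

/-- A block idempotent is supported, modulo `M`, on classes of small defect. -/
theorem memLocalIdeal_blockCoeff_of_lt (hM : IsPModular p M) (hB : IsPBlock M B) {g : G}
    (hreg : ¬ p ∣ orderOf g)
    (hcon : ∀ ψ ∈ B, ((Subgroup.centralizer ({g} : Set G)).index).factorization p <
      (charDegree (ψ : G → ℂ)).factorization p) :
    MemLocalIdeal M (blockCoeff B g) := by
  classical
  have := Fintype.ofFinite G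
  have := isMaximal_of_isPModular hM
  have : Fact p.Prime := ⟨hM.1⟩
  set C := Subgroup.centralizer ({g} : Set G)
  obtain ⟨S⟩ : Nonempty (Sylow p C) := inferInstance
  set P : Subgroup G := (S : Subgroup C).map C.subtype with hPdef
  have hPp : IsPGroup p P := S.2.map _
  have hPg : ∀ u ∈ P, g * u = u * g := by
    rintro _ ⟨u, -, rfl⟩
    exact (Subgroup.mem_centralizer_singleton_iff.1 u.2).symm
  have : Fintype P := Fintype.ofFinite P
  -- the index of `P` and that of the centraliser have the same `p`-part
  have hidx : P.index.factorization p = C.index.factorization p := by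
    have h1 : P.index = (S : Subgroup C).index * C.index := Subgroup.index_map_subtype _
    rw [h1, Nat.factorization_mul (Subgroup.index_ne_zero_of_finite)
      (Subgroup.index_ne_zero_of_finite), Finsupp.add_apply,
      Nat.factorization_eq_zero_of_not_dvd S.not_dvd_index, zero_add]
  have hsing : ∀ u : P, u ≠ 1 → p ∣ orderOf (g * u) := by
    intro u hu
    obtain ⟨k, hk⟩ := IsPGroup.iff_orderOf.1 hPp u
    have hu' : orderOf (u : G) = p ^ k := by rw [Subgroup.orderOf_coe, hk]
    have hk0 : k ≠ 0 := by
      rintro rfl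
      rw [pow_zero, orderOf_eq_one_iff] at hu'
      exact hu (Subtype.ext hu')
    rw [(show Commute g (u : G) from hPg u u.2).orderOf_mul_eq_mul_orderOf_of_coprime
      (hu' ▸ ((hM.1.coprime_iff_not_dvd.2 hreg).symm.pow_right k)), hu']
    exact dvd_mul_of_dvd_right (dvd_pow_self p hk0) _
  let c : IrrCharacter G → ℂ := fun ψ =>
    (Nat.card P : ℂ)⁻¹ * ∑ u : P, conj ((ψ : G → ℂ) (g * u))
  have hc : ∀ ψ, MemLocalRing M (c ψ) := fun ψ => by
    refine memLocalRing_of_isIntegral ?_
    have h := (isIntegral_average (Chars.isCharacter_coe ψ) P g hPg).map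
      (starRingEnd ℂ).toIntAlgHom
    simpa [c] using h
  have hkey : ∑ ψ ∈ B.toFinite.toFinset, (ψ : G → ℂ) 1 * c ψ = (P.index : ℂ) * blockCoeff B g := by
    have h1 : ∑ ψ ∈ B.toFinite.toFinset, (ψ : G → ℂ) 1 * c ψ =
        (Nat.card P : ℂ)⁻¹ * ∑ u : P, (Nat.card G : ℂ) * blockCoeff B (g * u) := by
      have hG : (Nat.card G : ℂ) ≠ 0 := Nat.cast_ne_zero.2 (Nat.card_pos (α := G)).ne'
      simp only [c, blockCoeff, finsum_block_eq_sum, mul_inv_cancel_left₀ hG, Finset.mul_sum]
      rw [Finset.sum_comm]
      exact Finset.sum_congr rfl fun u _ => Finset.sum_congr rfl fun ψ _ => by ring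
    rw [h1, Finset.sum_eq_single (1 : P), Subgroup.coe_one, mul_one]
    · have h2 : (P.index : ℂ) * Nat.card P = Nat.card G := by exact_mod_cast P.index_mul_card
      have hP : (Nat.card P : ℂ) ≠ 0 := Nat.cast_ne_zero.2 Nat.card_pos.ne'
      rw [← h2]
      field_simp
    · intro u _ hu
      rw [blockCoeff_eq_zero_of_singular hM hB (hsing u hu), mul_zero]
    · intro h
      exact absurd (Finset.mem_univ _) h
  set v := P.index.factorization p
  have hpv : (p ^ v : ℕ) ≠ 0 := pow_ne_zero _ hM.1.ne_zero
  have hleft : MemLocalIdeal M ((∑ ψ ∈ B.toFinite.toFinset, (ψ : G → ℂ) 1 * c ψ) /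
      ((p ^ v : ℕ) : ℂ)) := by
    rw [Finset.sum_div]
    refine memLocalIdeal_sum _ fun ψ hψ => ?_
    rw [mul_div_right_comm, ← Chars.coe_charDegree]
    refine memLocalIdeal_mul_right (memLocalIdeal_natCast_div hM hpv
      (Chars.charDegree_pos ψ).ne' ?_) (hc ψ)
    rw [Nat.factorization_pow, Finsupp.smul_apply, hM.1.factorization_self, smul_eq_mul, mul_one,
      hidx]
    exact hcon ψ ((Set.Finite.mem_toFinset _).1 hψ)
  rw [hkey, mul_div_right_comm] at hleft
  have hq : ((P.index : ℕ) : ℂ) / ((p ^ v : ℕ) : ℂ) = ((P.index / p ^ v : ℕ) : ℂ) := by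
    rw [div_eq_iff (Nat.cast_ne_zero.2 hpv), ← Nat.cast_mul,
      Nat.div_mul_cancel (Nat.ordProj_dvd P.index p)]
  rw [hq] at hleft
  have hqi : ¬ MemLocalIdeal M (((P.index / p ^ v : ℕ) : ℕ) : ℂ) := fun h =>
    Nat.not_dvd_ordCompl hM.1 Subgroup.index_ne_zero_of_finite
      ((memLocalIdeal_natCast_iff hM _).1 h)
  by_contra hne
  exact not_memLocalIdeal_mul (mem_localRing.1 (natCast_mem (localRing M) _))
    (memLocalRing_blockCoeff hB g) hqi hne hleft
/-- Central characters vanish modulo `M` on classes of large `p`-part. -/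
theorem congr_centralChar_zero_of_lt (hM : IsPModular p M) {χ ψ : IrrCharacter G}
    (hψ : SameBlock M (χ : G → ℂ) (ψ : G → ℂ)) {g : G}
    (hlt : (charDegree (ψ : G → ℂ)).factorization p <
      ((Subgroup.centralizer ({g} : Set G)).index).factorization p) :
    MemLocalIdeal M (centralChar (χ : G → ℂ) g) := by
  classical
  have := Fintype.ofFinite G
  have := isMaximal_of_isPModular hM
  have h : MemLocalIdeal M (centralChar (ψ : G → ℂ) g) := by
    rw [centralChar, mul_div_right_comm, ← Chars.coe_charDegree]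
    exact memLocalIdeal_mul_right (memLocalIdeal_natCast_div hM (Chars.charDegree_pos ψ).ne'
      Subgroup.index_ne_zero_of_finite hlt)
      (memLocalRing_of_isIntegral (Chars.isIntegral_apply (Chars.isCharacter_coe ψ) g))
  rw [memLocalIdeal_iff_congr_zero] at h ⊢
  exact Congr.trans (hψ g) h

end CfsgLib.Blocks.Orth
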