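import Cfsg.Agent.Chars.Basic.Columns

/-!
# Landau's theorem: groups with boundedly many classes have bounded order
-/

set_option autoImplicit false

namespace CfsgLib.Blocks

universe u v

/-- Finitely many unit fractions with a given positive sum have bounded denominators. -/
theorem exists_bound_unit_fractions : ∀ (k : ℕ) (r : ℚ), 0 < r → ∃ N : ℕ,
    ∀ s : Multiset ℕ, Multiset.card s ≤ k → (∀ n ∈ s, 0 < n) →
      (s.map fun n : ℕ => (n : ℚ)⁻¹).sum = r → ∀ n ∈ s, n ≤ N := by
  intro k
  induction k with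
  | zero =>
    intro r _
    refine ⟨0, fun s hs _ _ n hn => ?_⟩
    rw [Multiset.card_eq_zero.1 (Nat.le_zero.1 hs)] at hn
    exact absurd hn (Multiset.notMem_zero n)
  | succ k ih =>
    intro r hr
    classical
    set L := Nat.ceil (((k + 1 : ℕ) : ℚ) / r) + 1 with hL
    have h' : ∀ i : ℕ, ∃ N : ℕ, 0 < r - (i : ℚ)⁻¹ → ∀ s : Multiset ℕ, Multiset.card s ≤ k →
        (∀ n ∈ s, 0 < n) → (s.map fun n : ℕ => (n : ℚ)⁻¹).sum = r - (i : ℚ)⁻¹ → ∀ n ∈ s, n ≤ N := by
      intro i
      by_cases hi : 0 < r - (i : ℚ)⁻¹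
      · obtain ⟨N, hN⟩ := ih _ hi
        exact ⟨N, fun _ => hN⟩
      · exact ⟨0, fun h => absurd h hi⟩
    choose N hN using h'
    refine ⟨L + (Finset.range L).sup N, fun s hs hpos hsum n hn => ?_⟩
    have hne : s ≠ 0 := fun h => by rw [h] at hn; exact Multiset.notMem_zero n hn
    obtain ⟨i, hi, hmin⟩ := s.toFinset.exists_min_image id ⟨n, Multiset.mem_toFinset.2 hn⟩
    rw [Multiset.mem_toFinset] at hi
    have hi0 : (0 : ℚ) < (i : ℚ) := by exact_mod_cast hpos i hi
    have hle : r ≤ ((k + 1 : ℕ) : ℚ) * (i : ℚ)⁻¹ := by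
      rw [← hsum]
      refine le_trans (Multiset.sum_le_card_nsmul _ (i : ℚ)⁻¹ ?_) ?_
      · intro q hq
        obtain ⟨j, hj, rfl⟩ := Multiset.mem_map.1 hq
        exact inv_anti₀ hi0 (by exact_mod_cast hmin j (Multiset.mem_toFinset.2 hj))
      · rw [Multiset.card_map, nsmul_eq_mul]
        refine mul_le_mul_of_nonneg_right ?_ (by positivity)
        exact_mod_cast hs
    have hiL : i < L := by
      rw [← div_eq_mul_inv, le_div_iff₀ hi0] at hle
      have h1 : (i : ℚ) ≤ ((k + 1 : ℕ) : ℚ) / r := (le_div_iff₀ hr).2 (by linarith)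
      have h2 : i ≤ Nat.ceil (((k + 1 : ℕ) : ℚ) / r) := by
        exact_mod_cast h1.trans (Nat.le_ceil _)
      omega
    obtain ⟨t, rfl⟩ := Multiset.exists_cons_of_mem hi
    rw [Multiset.map_cons, Multiset.sum_cons] at hsum
    rcases Multiset.mem_cons.1 hn with rfl | hnt
    · omega
    have hnpos : (0 : ℚ) < (n : ℚ)⁻¹ := by
      have := hpos n hn
      positivity
    have hmem : (n : ℚ)⁻¹ ≤ (t.map fun j : ℕ => (j : ℚ)⁻¹).sum :=
      Multiset.single_le_sum (fun q hq => by
        obtain ⟨j, -, rfl⟩ := Multiset.mem_map.1 hq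
        positivity) _ (Multiset.mem_map_of_mem _ hnt)
    have hcard : Multiset.card t ≤ k := by
      rw [Multiset.card_cons] at hs
      omega
    have := hN i (by linarith) t hcard (fun j hj => hpos j (Multiset.mem_cons_of_mem hj))
      (by linarith) n hnt
    have h3 := Finset.le_sup (f := N) (Finset.mem_range.2 hiL)
    omega

/-- **Landau.** A bound on the number of classes bounds the order. -/
theorem exists_bound_card_of_card_conjClasses (k : ℕ) : ∃ N : ℕ, ∀ (G : Type u) [Group G]
    [Finite G], Nat.card (ConjClasses G) ≤ k → Nat.card G ≤ N := by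
  classical
  obtain ⟨N, hN⟩ := exists_bound_unit_fractions k 1 one_pos
  refine ⟨N, fun G _ _ hk => ?_⟩
  have := Fintype.ofFinite G
  have := Fintype.ofFinite (ConjClasses G)
  let c : ConjClasses G → ℕ := fun C => Nat.card (Subgroup.centralizer ({C.out} : Set G))
  have hcC : ∀ C : ConjClasses G, Nat.card C.carrier * c C = Nat.card G := by
    intro C
    have h := Chars.card_carrier_mul_card_centralizer (C.out : G)
    rwa [show ConjClasses.mk (Quotient.out C) = C from Quotient.out_eq C] at h
  have hG : (Nat.card G : ℚ) ≠ 0 := by exact_mod_cast Nat.card_pos.ne'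
  have hsum : ((Finset.univ.val.map c).map fun n : ℕ => (n : ℚ)⁻¹).sum = 1 := by
    rw [Multiset.map_map]
    show ∑ C : ConjClasses G, ((c C : ℕ) : ℚ)⁻¹ = 1
    have h1 : ∀ C : ConjClasses G, ((c C : ℕ) : ℚ)⁻¹ = (Nat.card C.carrier : ℚ) / Nat.card G := by
      intro C
      have h0 : (c C : ℚ) ≠ 0 := by
        have : 0 < c C := Nat.card_pos
        exact_mod_cast this.ne'
      rw [← hcC C, eq_div_iff (by rw [hcC C]; exact hG)]
      push_cast
      field_simp
    have hpart : ∑ C : ConjClasses G, Nat.card C.carrier = Nat.card G := by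
      rw [← Nat.card_sigma]
      refine Nat.card_congr ((Equiv.sigmaCongrRight fun C => Equiv.subtypeEquivRight fun x => ?_).trans
        (Equiv.sigmaFiberEquiv (ConjClasses.mk (α := G))))
      exact ConjClasses.mem_carrier_iff_mk_eq
    rw [Finset.sum_congr rfl fun C _ => h1 C, ← Finset.sum_div, ← Nat.cast_sum, hpart, div_self hG]
  have hle := hN (Finset.univ.val.map c)
    (by rw [Multiset.card_map]; simpa [Nat.card_eq_fintype_card] using hk)
    (fun n hn => by obtain ⟨C, -, rfl⟩ := Multiset.mem_map.1 hn; exact Nat.card_pos)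
    hsum (c (ConjClasses.mk 1)) (Multiset.mem_map_of_mem _ (Finset.mem_univ _))
  have h1 : (ConjClasses.mk (1 : G)).out = 1 := by
    have h := ConjClasses.mk_eq_mk_iff_isConj.1
      (show ConjClasses.mk ((ConjClasses.mk (1 : G)).out) = ConjClasses.mk 1 from Quotient.out_eq _)
    exact isConj_one_left.1 h
  have htop : Subgroup.centralizer ({(1 : G)} : Set G) = ⊤ :=
    eq_top_iff.2 fun x _ => by simp [Subgroup.mem_centralizer_iff]
  simp only [c, h1, htop, Subgroup.card_top] at hle
  exact hle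

end CfsgLib.Blocks
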