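import Cfsg.Agent.Blocks.Orth.Subsection
import Cfsg.Agent.Blocks.Orth.ClassMult
import Cfsg.Agent.Blocks.Basic.Principal

/-!
# Two primes without an element of product order
-/

set_option autoImplicit false

namespace CfsgLib.Blocks

open Cfsg
open scoped ComplexConjugate

universe u

variable {G : Type u} [Group G] [Finite G]

/-- If no element has order divisible by both primes, the degree-weighted sum over the intersection
of a `p`-block and a `q`-block at a `p`-singular element is divisible by the `q`-part of `|G|`. -/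
theorem exists_sum_inter_eq {p q : ℕ} (hp : p.Prime) (hq : q.Prime) {Mp Mq : Ideal AlgInt}
    (hMp : IsPModular p Mp) (hMq : IsPModular q Mq)
    (hsep : ∀ g : G, p ∣ orderOf g → q ∣ orderOf g → False)
    {Bp : Set (IrrCharacter G)} (hBp : IsPBlock Mp Bp) {Bq : Set (IrrCharacter G)}
    (hBq : IsPBlock Mq Bq) {y : G} (hy : p ∣ orderOf y) (Q : Sylow q G) :
    ∃ ω : AlgInt, ∑ᶠ χ ∈ Bp ∩ Bq, (χ : G → ℂ) 1 * (χ : G → ℂ) y =
      (Nat.card Q : ℂ) * (ω : ℂ) := by
  classical
  have := Fintype.ofFinite G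
  have := Fintype.ofFinite (Q : Subgroup G)
  have := Fact.mk hq
  -- `T` vanishes on `p`-regular elements, hence on `q`-singular ones
  set T : G → ℂ := ∑ χ ∈ Bp.toFinite.toFinset, (χ : G → ℂ) y • (χ : G → ℂ) with hT
  have hTreg : pRegularPart q T = T := by
    funext g
    by_cases hg : IsPRegular q g
    · simp [pRegularPart, hg]
    · have hgp : ¬ p ∣ orderOf g := fun h => hsep g h (not_not.1 hg)
      simp only [pRegularPart, hg, if_false, hT, Finset.sum_apply, Pi.smul_apply, smul_eq_mul]
      rw [← finsum_block_eq_sum Bp (fun χ : IrrCharacter G => (χ : G → ℂ) y * (χ : G → ℂ) g),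
        ← finsum_block_regular_mul_conj_singular hMp hBp hgp (y := y⁻¹) (by rwa [orderOf_inv])]
      refine finsum_mem_congr rfl fun χ _ => ?_
      rw [← Chars.map_inv_eq_conj (Chars.isCharacter_coe χ), inv_inv, mul_comm]
  have hci : ∀ ψ : IrrCharacter G,
      classInner T (ψ : G → ℂ) = if ψ ∈ Bp then (ψ : G → ℂ) y else 0 := by
    intro ψ
    rw [hT, Chars.classInner_sum_left]
    simp only [Chars.classInner_smul_left, Chars.classInner_irr, mul_ite, mul_one, mul_zero,
      Finset.sum_ite_eq', Set.Finite.mem_toFinset]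
  set S := (Bp ∩ Bq).toFinite.toFinset
  have hT' : blockPart Bq T = ∑ χ ∈ S, (χ : G → ℂ) y • (χ : G → ℂ) := by
    rw [blockPart_apply_eq]
    simp only [hci, ite_smul, zero_smul]
    rw [← Finset.sum_filter]
    exact Finset.sum_congr (by ext χ; simp [S, and_comm]) fun _ _ => rfl
  have hvan : ∀ g : G, q ∣ orderOf g → ∑ χ ∈ S, (χ : G → ℂ) y * (χ : G → ℂ) g = 0 := by
    intro g hg
    have h := congrFun (blockPart_pRegularPart hMq hBq T) g
    rw [hTreg, hT'] at h
    simpa [pRegularPart, IsPRegular, hg] using h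
  choose m hm using fun χ : IrrCharacter G => exists_sum_subgroup_eq χ (Q : Subgroup G)
  refine ⟨∑ χ ∈ S, ⟨(χ : G → ℂ) y, Chars.isIntegral_apply (Chars.isCharacter_coe χ) y⟩ *
    (m χ : AlgInt), ?_⟩
  rw [finsum_block_eq_sum]
  calc ∑ χ ∈ S, (χ : G → ℂ) 1 * (χ : G → ℂ) y
      = ∑ χ ∈ S, (χ : G → ℂ) y * ∑ u : (Q : Subgroup G), (χ : G → ℂ) u := by
        simp only [Finset.mul_sum]
        rw [Finset.sum_comm, Finset.sum_eq_single (1 : (Q : Subgroup G))]
        · simp [mul_comm]
        · intro u _ hu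
          refine hvan _ ?_
          obtain ⟨k, hk⟩ := IsPGroup.iff_orderOf.1 Q.isPGroup' u
          rw [Subgroup.orderOf_coe, hk]
          refine dvd_pow_self q fun hk0 => hu ?_
          rw [hk0, pow_zero] at hk
          exact orderOf_eq_one_iff.1 hk
        · exact fun h => absurd (Finset.mem_univ _) h
    _ = _ := by
        push_cast
        simp only [hm, Finset.mul_sum]
        exact Finset.sum_congr rfl fun χ _ => by ring

/-- No element of order `p * q` means no element of order divisible by both. -/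
theorem separated_of_orderOf_ne {p q : ℕ} (hp : p.Prime) (hq : q.Prime) (hpq : p ≠ q)
    (hno : ∀ g : G, orderOf g ≠ p * q) (g : G) (h1 : p ∣ orderOf g) (h2 : q ∣ orderOf g) :
    False := by
  obtain ⟨k, hk⟩ := ((Nat.coprime_primes hp hq).2 hpq).mul_dvd_of_dvd_of_dvd h1 h2
  refine hno (g ^ k) ?_
  have hk0 : k ≠ 0 := fun h => (orderOf_pos g).ne' (by rw [hk, h, mul_zero])
  rw [orderOf_pow' g hk0, hk, Nat.gcd_mul_left_left, Nat.mul_div_cancel _ (Nat.pos_of_ne_zero hk0)]

end CfsgLib.Blocks
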